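import Cfsg.Prelude.Def_JordanBlocks

/-!
The commutant of a nilpotent matrix in Jordan form.
-/

set_option autoImplicit false

open Matrix

namespace CfsgLib.JordanCentralizer

variable {F : Type*} [Field F] {t : ℕ} (d : Fin t → ℕ)

local notation "I" => (k : Fin t) × Fin (d k)

/-- Coordinates of the commutant: the generator `l` may go to position `u` of block `m` when `d m ≤ u + d l`. -/
abbrev Pos : Type := {x : Fin t × I // d x.2.1 ≤ (x.2.2 : ℕ) + d x.1}

variable {d}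

/-- The entry relation of the commutant. -/
def Rel (g : Matrix I I F) : Prop :=
  ∀ (m l : Fin t) (s : Fin (d m)) (j : Fin (d l)) (h0 : 0 < d l),
    g ⟨m, s⟩ ⟨l, j⟩ = if (j : ℕ) ≤ s then g ⟨m, ⟨s - j, lt_of_le_of_lt (Nat.sub_le _ _) s.2⟩⟩ ⟨l, ⟨0, h0⟩⟩ else 0

theorem sub_one_apply (x y : I) :
    (Cfsg.jordanTypeMatrix d F - 1) x y = if x.1 = y.1 ∧ (x.2 : ℕ) = y.2 + 1 then 1 else 0 := by
  obtain ⟨a, i⟩ := x
  obtain ⟨b, j⟩ := y
  rw [Matrix.sub_apply, Cfsg.jordanTypeMatrix]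
  by_cases hab : a = b
  · subst hab
    rw [Matrix.blockDiagonal'_apply_eq]
    simp only [Cfsg.jordanBlock, Matrix.of_apply]
    by_cases hij : (i : ℕ) = j
    · have : i = j := Fin.ext hij
      subst this
      simp
    · have h1 : (⟨a, i⟩ : I) ≠ ⟨a, j⟩ := fun h => hij (by cases h; rfl)
      rw [Matrix.one_apply_ne h1, if_neg hij]
      simp
  · rw [Matrix.blockDiagonal'_apply_ne _ _ _ hab, Matrix.one_apply_ne (fun h => hab (congrArg Sigma.fst h)), sub_zero,
      if_neg (fun h => hab h.1)]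

theorem mul_shift_apply (g : Matrix I I F) (x : I) (l : Fin t) (j : Fin (d l)) :
    (g * (Cfsg.jordanTypeMatrix d F - 1)) x ⟨l, j⟩ = if h : (j : ℕ) + 1 < d l then g x ⟨l, ⟨j + 1, h⟩⟩ else 0 := by
  rw [Matrix.mul_apply]
  simp only [sub_one_apply, mul_ite, mul_one, mul_zero]
  split_ifs with h
  · rw [Finset.sum_eq_single (⟨l, ⟨j + 1, h⟩⟩ : I)]
    · rw [if_pos ⟨rfl, rfl⟩]
    · rintro ⟨k, i⟩ - hne
      refine if_neg fun hc => hne ?_
      obtain ⟨hk, hi⟩ := hc
      obtain rfl : k = l := hk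
      exact Sigma.ext rfl (heq_of_eq (Fin.ext hi))
    · simp
  · refine Finset.sum_eq_zero ?_
    rintro ⟨k, i⟩ -
    refine if_neg fun hc => ?_
    obtain ⟨hk, hi⟩ := hc
    obtain rfl : k = l := hk
    have h1 : (i : ℕ) = (j : ℕ) + 1 := hi
    have h2 := i.2
    omega

theorem shift_mul_apply (g : Matrix I I F) (m : Fin t) (s : Fin (d m)) (y : I) :
    ((Cfsg.jordanTypeMatrix d F - 1) * g) ⟨m, s⟩ y =
      if 1 ≤ (s : ℕ) then g ⟨m, ⟨s - 1, lt_of_le_of_lt (Nat.sub_le _ _) s.2⟩⟩ y else 0 := by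
  rw [Matrix.mul_apply]
  simp only [sub_one_apply, ite_mul, one_mul, zero_mul]
  split_ifs with h
  · rw [Finset.sum_eq_single (⟨m, ⟨s - 1, lt_of_le_of_lt (Nat.sub_le _ _) s.2⟩⟩ : I)]
    · rw [if_pos ⟨rfl, by simp; omega⟩]
    · rintro ⟨k, i⟩ - hne
      refine if_neg fun hc => hne ?_
      obtain ⟨hk, hi⟩ := hc
      obtain rfl : m = k := hk
      exact Sigma.ext rfl (heq_of_eq (Fin.ext (by simp at hi ⊢; omega)))
    · simp
  · refine Finset.sum_eq_zero ?_
    rintro ⟨k, i⟩ -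
    refine if_neg fun hc => ?_
    have := hc.2
    omega

theorem rel_of_commute {g : Matrix I I F}
    (h : g * (Cfsg.jordanTypeMatrix d F - 1) = (Cfsg.jordanTypeMatrix d F - 1) * g) : Rel g := by
  intro m l s j h0
  obtain ⟨j, hj⟩ := j
  induction j generalizing s with
  | zero => simp
  | succ j ih =>
    have e := congrFun (congrFun h ⟨m, s⟩) ⟨l, ⟨j, by omega⟩⟩
    rw [mul_shift_apply, shift_mul_apply, dif_pos hj] at e
    rw [e]
    by_cases hs : 1 ≤ (s : ℕ)
    · rw [if_pos hs, ih ⟨s - 1, lt_of_le_of_lt (Nat.sub_le _ _) s.2⟩ (by omega)]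
      by_cases hjs : j + 1 ≤ (s : ℕ)
      · rw [if_pos (show j ≤ (s : ℕ) - 1 by omega), if_pos hjs]
        exact congrArg (fun i => g ⟨m, i⟩ _) (Fin.ext (show (s : ℕ) - 1 - j = s - (j + 1) by omega))
      · rw [if_neg (show ¬ j ≤ (s : ℕ) - 1 by omega), if_neg hjs]
    · rw [if_neg hs, if_neg (show ¬ j + 1 ≤ (s : ℕ) by omega)]

theorem zero_of_commute {g : Matrix I I F}
    (h : g * (Cfsg.jordanTypeMatrix d F - 1) = (Cfsg.jordanTypeMatrix d F - 1) * g)
    {m l : Fin t} (s : Fin (d m)) (h0 : 0 < d l) (hlt : (s : ℕ) + d l < d m) : g ⟨m, s⟩ ⟨l, ⟨0, h0⟩⟩ = 0 := by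
  have e := congrFun (congrFun h ⟨m, ⟨s + d l, hlt⟩⟩) ⟨l, ⟨d l - 1, by omega⟩⟩
  rw [mul_shift_apply, shift_mul_apply, dif_neg (show ¬ d l - 1 + 1 < d l by omega),
    if_pos (show 1 ≤ (s : ℕ) + d l by omega), rel_of_commute h m l _ _ h0,
    if_pos (show d l - 1 ≤ (s : ℕ) + d l - 1 by omega)] at e
  rw [e]
  exact congrArg (fun i => g ⟨m, i⟩ _) (Fin.ext (show (s : ℕ) = (s + d l - 1) - (d l - 1) by omega))

/-- The commuting matrix with prescribed coordinates. -/
def ofPos (c : Pos d → F) : Matrix I I F := fun x y =>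
  if h : (y.2 : ℕ) ≤ x.2 ∧ d x.1 ≤ (x.2 : ℕ) - y.2 + d y.1 then
    c ⟨(y.1, ⟨x.1, ⟨(x.2 : ℕ) - y.2, lt_of_le_of_lt (Nat.sub_le _ _) x.2.2⟩⟩), h.2⟩
  else 0

theorem ofPos_commute (c : Pos d → F) :
    ofPos c * (Cfsg.jordanTypeMatrix d F - 1) = (Cfsg.jordanTypeMatrix d F - 1) * ofPos c := by
  ext ⟨m, s⟩ ⟨l, j⟩
  rw [mul_shift_apply, shift_mul_apply]
  have hs := s.2
  have hj' := j.2
  by_cases hj : (j : ℕ) + 1 < d l
  · rw [dif_pos hj]
    by_cases h1 : 1 ≤ (s : ℕ)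
    · rw [if_pos h1]
      simp only [ofPos]
      by_cases hc : (j : ℕ) + 1 ≤ s ∧ d m ≤ (s : ℕ) - (j + 1) + d l
      · rw [dif_pos hc, dif_pos ⟨show (j : ℕ) ≤ (s : ℕ) - 1 by omega,
          show d m ≤ (s : ℕ) - 1 - j + d l by omega⟩]
        congr 3
        exact Sigma.ext rfl (heq_of_eq (Fin.ext (show (s : ℕ) - (j + 1) = s - 1 - j by omega)))
      · rw [dif_neg hc, dif_neg (fun h => hc ⟨by have : (j : ℕ) ≤ (s : ℕ) - 1 := h.1; omega,
          by have : d m ≤ (s : ℕ) - 1 - j + d l := h.2; omega⟩)]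
    · rw [if_neg h1, ofPos, dif_neg]
      rintro ⟨h, -⟩
      have : (j : ℕ) + 1 ≤ s := h
      omega
  · rw [dif_neg hj]
    split_ifs with h1
    · rw [ofPos, dif_neg]
      rintro ⟨h, h'⟩
      have h2 : (j : ℕ) ≤ (s : ℕ) - 1 := h
      have h3 : d m ≤ (s : ℕ) - 1 - j + d l := h'
      omega
    · rfl

/-- The commutant in coordinates. -/
noncomputable def commutantEquiv (hd : ∀ k, 1 ≤ d k) :
    {g : Matrix I I F // g * (Cfsg.jordanTypeMatrix d F - 1) = (Cfsg.jordanTypeMatrix d F - 1) * g} ≃ (Pos d → F) where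
  toFun g x := g.1 x.1.2 ⟨x.1.1, ⟨0, hd _⟩⟩
  invFun c := ⟨ofPos c, ofPos_commute c⟩
  left_inv g := Subtype.ext (by
    ext ⟨m, s⟩ ⟨l, j⟩
    rw [rel_of_commute g.2 m l s j (hd l)]
    show ofPos (fun x : Pos d => g.1 x.1.2 ⟨x.1.1, ⟨0, hd _⟩⟩) ⟨m, s⟩ ⟨l, j⟩ = _
    by_cases hjs : (j : ℕ) ≤ s
    · rw [if_pos hjs]
      by_cases hc : d m ≤ (s : ℕ) - j + d l
      · rw [ofPos, dif_pos ⟨hjs, hc⟩]
      · rw [ofPos, dif_neg (fun h => hc h.2)]
        exact (zero_of_commute g.2 _ (hd l) (by simp only []; omega)).symm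
    · rw [if_neg hjs, ofPos, dif_neg (fun h => hjs h.1)])
  right_inv c := funext fun x => by
    obtain ⟨⟨l, m, s⟩, hx⟩ := x
    show ofPos c ⟨m, s⟩ ⟨l, ⟨0, hd l⟩⟩ = _
    rw [ofPos, dif_pos ⟨Nat.zero_le _, by simpa using hx⟩]
    rfl

/-- The action on generators. -/
def top (hd : ∀ k, 1 ≤ d k) (g : Matrix I I F) : Matrix (Fin t) (Fin t) F :=
  Matrix.of fun m l => g ⟨m, ⟨0, hd m⟩⟩ ⟨l, ⟨0, hd l⟩⟩

variable (hd : ∀ k, 1 ≤ d k)

theorem top_one : top hd (1 : Matrix I I F) = 1 := by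
  ext m l
  by_cases h : m = l
  · subst h; simp [top]
  · rw [top, Matrix.of_apply, Matrix.one_apply_ne h, Matrix.one_apply_ne (fun e => h (congrArg Sigma.fst e))]

theorem top_mul {g : Matrix I I F} (hg : Rel g) (h : Matrix I I F) : top hd (g * h) = top hd g * top hd h := by
  ext m l
  rw [top, Matrix.of_apply, Matrix.mul_apply, Matrix.mul_apply, Fintype.sum_sigma]
  refine Finset.sum_congr rfl fun k _ => ?_
  rw [Finset.sum_eq_single (⟨0, hd k⟩ : Fin (d k))]
  · rfl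
  · intro i _ hi
    have hi' : ¬ (i : ℕ) ≤ 0 := fun h' => hi (Fin.ext (Nat.le_zero.mp h'))
    rw [hg m k ⟨0, hd m⟩ i (hd k), if_neg hi', zero_mul]
  · simp

theorem top_triangular {g : Matrix I I F}
    (h : g * (Cfsg.jordanTypeMatrix d F - 1) = (Cfsg.jordanTypeMatrix d F - 1) * g) :
    Matrix.BlockTriangular (top hd g) d := fun m l hlt =>
  zero_of_commute h _ (hd l) (by simpa using hlt)

theorem isNilpotent_of_top {g : Matrix I I F} (hg : Rel g) (h0 : top hd g = 0) : IsNilpotent g := by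
  have key : ∀ n (x y : I), (x.2 : ℕ) < y.2 + n → (g ^ n) x y = 0 := by
    intro n
    induction n with
    | zero =>
      intro x y h
      rw [pow_zero, Matrix.one_apply_ne]
      rintro rfl
      omega
    | succ n ih =>
      intro x y h
      rw [pow_succ, Matrix.mul_apply]
      refine Finset.sum_eq_zero fun z _ => ?_
      by_cases hz : (x.2 : ℕ) < z.2 + n
      · rw [ih x z hz, zero_mul]
      · obtain ⟨m, s⟩ := z
        obtain ⟨l, j⟩ := y
        have h1 : (x.2 : ℕ) < j + (n + 1) := h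
        have h2 : ¬ (x.2 : ℕ) < s + n := hz
        rw [hg m l s j (hd l)]
        split_ifs with hjs
        · have hsj : (s : ℕ) - j = 0 := by omega
          have := congrFun (congrFun h0 m) l
          rw [top, Matrix.of_apply] at this
          rw [show (⟨(s : ℕ) - j, _⟩ : Fin (d m)) = ⟨0, hd m⟩ from Fin.ext hsj, this, Matrix.zero_apply, mul_zero]
        · rw [mul_zero]
  refine ⟨Finset.univ.sup d + 1, ?_⟩
  ext x y
  refine key _ x y ?_
  have h1 := x.2.2
  have h2 : d x.1 ≤ Finset.univ.sup d := Finset.le_sup (Finset.mem_univ _)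
  omega

variable [Finite F]

/-- A commuting matrix is invertible iff it is invertible on generators. -/
theorem isUnit_iff {g : Matrix I I F}
    (h : g * (Cfsg.jordanTypeMatrix d F - 1) = (Cfsg.jordanTypeMatrix d F - 1) * g) :
    IsUnit g ↔ IsUnit (top hd g) := by
  constructor
  · intro hu
    obtain ⟨u, rfl⟩ := hu
    have hi : Commute ((u⁻¹ : (Matrix I I F)ˣ) : Matrix I I F) (Cfsg.jordanTypeMatrix d F - 1) :=
      Commute.units_inv_left (show Commute (u : Matrix I I F) _ from h)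
    refine IsUnit.of_mul_eq_one (top hd ((u⁻¹ : (Matrix I I F)ˣ) : Matrix I I F)) ?_
    rw [← top_mul hd (rel_of_commute h), Units.mul_inv, top_one]
  · intro hu
    obtain ⟨v, hv⟩ := hu
    haveI : Finite (Matrix (Fin t) (Fin t) F)ˣ := inferInstance
    obtain ⟨M, hM0, hM⟩ : ∃ M, 0 < M ∧ top hd g ^ M = 1 :=
      ⟨orderOf v, orderOf_pos v, by rw [← hv, ← Units.val_pow_eq_pow_val, pow_orderOf_eq_one, Units.val_one]⟩
    have hpow : ∀ n, top hd (g ^ n) = top hd g ^ n := fun n => by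
      induction n with
      | zero => rw [pow_zero, pow_zero, top_one]
      | succ n ih => rw [pow_succ, pow_succ, top_mul hd (rel_of_commute (Commute.pow_left h n).eq), ih]
    have hsub : Commute (g ^ M - 1) (Cfsg.jordanTypeMatrix d F - 1) :=
      (Commute.pow_left h M).sub_left (Commute.one_left _)
    have hnil := isNilpotent_of_top hd (rel_of_commute hsub.eq) (by
      ext m l
      have h1 := congrFun (congrFun (hpow M) m) l
      have h2 := congrFun (congrFun (top_one (F := F) hd) m) l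
      rw [hM] at h1
      simp only [top, Matrix.of_apply, Matrix.sub_apply, Matrix.zero_apply] at h1 h2 ⊢
      rw [h1, h2, sub_self])
    have := hnil.isUnit_one_add
    rw [add_sub_cancel, isUnit_pow_iff hM0.ne'] at this
    exact this

end CfsgLib.JordanCentralizer
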