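import Cfsg.Agent.JordanCentralizer.Commutant

/-!
The order of the centraliser of a unipotent Jordan matrix.
-/

set_option autoImplicit false

open Matrix

namespace CfsgLib.JordanCentralizer

variable {t : ℕ} (d : Fin t → ℕ)

theorem card_pos (hd : ∀ k, 1 ≤ d k) : Fintype.card (Pos d) = ∑ l, ∑ m, min (d l) (d m) := by
  classical
  let e : Pos d ≃ Σ l : Fin t, Σ m : Fin t, {s : Fin (d m) // d m ≤ (s : ℕ) + d l} :=
    { toFun := fun x => ⟨x.1.1, x.1.2.1, x.1.2.2, x.2⟩
      invFun := fun y => ⟨(y.1, ⟨y.2.1, y.2.2.1⟩), y.2.2.2⟩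
      left_inv := fun _ => rfl
      right_inv := fun _ => rfl }
  rw [Fintype.card_congr e, Fintype.card_sigma]
  refine Finset.sum_congr rfl fun l _ => ?_
  rw [Fintype.card_sigma]
  refine Finset.sum_congr rfl fun m _ => ?_
  let f : {s : Fin (d m) // d m ≤ (s : ℕ) + d l} ≃ Fin (min (d l) (d m)) :=
    { toFun := fun s => ⟨(s.1 : ℕ) - (d m - d l), by have := s.1.2; have := s.2; have := hd l; omega⟩
      invFun := fun i => ⟨⟨(d m - d l) + i, by have := i.2; omega⟩, by
        show d m ≤ (d m - d l) + (i : ℕ) + d l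
        omega⟩
      left_inv := fun s => by
        apply Subtype.ext; apply Fin.ext
        show (d m - d l) + ((s.1 : ℕ) - (d m - d l)) = s.1
        have := s.2
        omega
      right_inv := fun i => by
        apply Fin.ext
        show (d m - d l) + (i : ℕ) - (d m - d l) = i
        omega }
  rw [Fintype.card_congr f, Fintype.card_fin]

/-- The multiplicity of a block size. -/
def size (i : ℕ) : ℕ := (Finset.univ.filter fun k : Fin t => d k = i).card

theorem sum_by_size {M : Type*} [AddCommMonoid M] (f : ℕ → M) :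
    ∑ k, f (d k) = ∑ i ∈ Finset.range (Finset.univ.sup d + 1), size d i • f i := by
  rw [← Finset.sum_fiberwise_of_maps_to (g := d) (t := Finset.range (Finset.univ.sup d + 1))
    (fun k hk => Finset.mem_range.mpr (Nat.lt_succ_of_le (Finset.le_sup hk)))]
  refine Finset.sum_congr rfl fun i _ => ?_
  rw [Finset.sum_congr rfl fun k hk => by rw [(Finset.mem_filter.mp hk).2], Finset.sum_const, size]

theorem sum_min : ∑ l, ∑ m, min (d l) (d m) =
    (2 * (∑ i ∈ Finset.range (Finset.univ.sup d + 1), ∑ j ∈ Finset.range (Finset.univ.sup d + 1),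
        if i < j then i * size d i * size d j else 0)) +
      ∑ i ∈ Finset.range (Finset.univ.sup d + 1), i * size d i ^ 2 := by
  rw [sum_by_size d (fun i => ∑ m, min i (d m))]
  rw [Finset.sum_congr rfl (fun i _ => congrArg (size d i • ·) (sum_by_size d (fun j => min i j)))]
  simp only [smul_eq_mul, Finset.mul_sum]
  have h1 : ∀ i j : ℕ, size d i * (size d j * min i j) = (if i < j then i * size d i * size d j else 0) +
      (if j < i then j * size d j * size d i else 0) + if i = j then i * size d i * size d j else 0 := by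
    intro i j
    rcases lt_trichotomy i j with h | rfl | h
    · rw [if_pos h, if_neg (by omega), if_neg (by omega), min_eq_left h.le]; ring
    · rw [if_neg (lt_irrefl i), if_pos rfl, min_self]; ring
    · rw [if_neg (by omega), if_pos h, if_neg (by omega), min_eq_right h.le]; ring
  simp only [h1, Finset.sum_add_distrib]
  rw [Finset.sum_comm (f := fun i j => if j < i then j * size d j * size d i else 0)]
  congr 1
  · simp only [two_mul, Finset.sum_add_distrib]
  · refine Finset.sum_congr rfl fun i hi => ?_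
    rw [Finset.sum_ite_eq, if_pos hi]
    ring

variable {F : Type*} [Field F] [Fintype F]

/-- The blocks of leading coordinates. -/
abbrev Blk : Type :=
  (a : Fin (Finset.univ.sup d + 1)) × ({k : Fin t // d k = a} × {k : Fin t // d k = a})

theorem card_commutant_units (hd : ∀ k, 1 ≤ d k) :
    Nat.card {g : GL ((k : Fin t) × Fin (d k)) F //
        (g : Matrix ((k : Fin t) × Fin (d k)) ((k : Fin t) × Fin (d k)) F) * Cfsg.jordanTypeMatrix d F =
          Cfsg.jordanTypeMatrix d F * (g : Matrix ((k : Fin t) × Fin (d k)) ((k : Fin t) × Fin (d k)) F)} =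
      Fintype.card F ^ (Fintype.card (Pos d) - Fintype.card (Blk d)) *
        ∏ i ∈ Finset.range (Finset.univ.sup d + 1),
          ∏ j : Fin (size d i), (Fintype.card F ^ size d i - Fintype.card F ^ (j : ℕ)) := by
  classical
  let I := (k : Fin t) × Fin (d k)
  let N : Matrix I I F := Cfsg.jordanTypeMatrix d F - 1
  have hN : ∀ g : Matrix I I F,
      g * Cfsg.jordanTypeMatrix d F = Cfsg.jordanTypeMatrix d F * g ↔ g * N = N * g := fun g => by
    simp only [N, mul_sub, sub_mul, mul_one, one_mul, sub_left_inj]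
  let e0 : {g : GL I F // (g : Matrix I I F) * Cfsg.jordanTypeMatrix d F = Cfsg.jordanTypeMatrix d F * (g : Matrix I I F)} ≃
      {g : {g : Matrix I I F // g * N = N * g} // IsUnit g.1} :=
    { toFun := fun g => ⟨⟨g.1.1, (hN _).mp g.2⟩, g.1.isUnit⟩
      invFun := fun g => ⟨g.2.unit, (hN _).mpr g.1.2⟩
      left_inv := fun g => Subtype.ext (Units.ext rfl)
      right_inv := fun g => rfl }
  let ι : Blk d → Pos d := fun b => ⟨(b.2.2.1, ⟨b.2.1.1, ⟨0, hd _⟩⟩), by simp [b.2.1.2, b.2.2.2]⟩
  have hι : Function.Injective ι := by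
    rintro ⟨a, k, l⟩ ⟨a', k', l'⟩ h
    have h1 : l.1 = l'.1 := congrArg (fun x : Pos d => x.1.1) h
    have h2 : k.1 = k'.1 := congrArg (fun x : Pos d => x.1.2.1) h
    have ha : a = a' := Fin.ext (by rw [← k.2, ← k'.2, h2])
    subst ha
    rw [Subtype.ext h1, Subtype.ext h2]
  let B := {x : Pos d // x ∈ Set.range ι}
  let eB : Blk d ≃ B := Equiv.ofInjective ι hι
  let blocks : (B → F) ≃ ((a : Fin (Finset.univ.sup d + 1)) → Matrix {k : Fin t // d k = a} {k : Fin t // d k = a} F) :=
    { toFun := fun c a => Matrix.of fun k l => c (eB ⟨a, k, l⟩)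
      invFun := fun M x => M (eB.symm x).1 (eB.symm x).2.1 (eB.symm x).2.2
      left_inv := fun c => funext fun x => by
        show c (eB (eB.symm x)) = c x
        rw [Equiv.apply_symm_apply]
      right_inv := fun M => funext fun a => by
        ext k l
        show M (eB.symm (eB ⟨a, k, l⟩)).1 _ _ = _
        rw [Equiv.symm_apply_apply] }
  let E : {g : Matrix I I F // g * N = N * g} ≃
      ((a : Fin (Finset.univ.sup d + 1)) → Matrix {k : Fin t // d k = a} {k : Fin t // d k = a} F) ×
        ({x : Pos d // x ∉ Set.range ι} → F) :=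
    ((commutantEquiv hd).trans (Equiv.piEquivPiSubtypeProd (fun x => x ∈ Set.range ι) fun _ => F)).trans
      (blocks.prodCongr (Equiv.refl _))
  have hE : ∀ g a k l, (E g).1 a k l = top hd g.1 k.1 l.1 := fun g a k l => rfl
  have hdet : ∀ g, IsUnit g.1 ↔ ∀ a, IsUnit ((E g).1 a) := fun g => by
    have key : ∀ a : Fin (Finset.univ.sup d + 1), (top hd g.1).toSquareBlock d (a : ℕ) = (E g).1 a := fun a => by
      ext k l
      exact (hE g a k l).symm
    rw [isUnit_iff hd g.2, Matrix.isUnit_iff_isUnit_det, (top_triangular hd g.2).det, IsUnit.prod_iff]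
    constructor
    · intro h a
      rw [← key, Matrix.isUnit_iff_isUnit_det]
      by_cases ha : (a : ℕ) ∈ Finset.univ.image d
      · exact h _ ha
      · haveI : IsEmpty {k : Fin t // d k = a} :=
          ⟨fun k => ha (Finset.mem_image.mpr ⟨k.1, Finset.mem_univ _, k.2⟩)⟩
        rw [Matrix.det_isEmpty]
        exact isUnit_one
    · intro h a ha
      obtain ⟨k, -, rfl⟩ := Finset.mem_image.mp ha
      have hk := h ⟨d k, Nat.lt_succ_of_le (Finset.le_sup (Finset.mem_univ k))⟩
      rw [← key, Matrix.isUnit_iff_isUnit_det] at hk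
      exact hk
  let eU : {x : ((a : Fin (Finset.univ.sup d + 1)) → Matrix {k : Fin t // d k = a} {k : Fin t // d k = a} F) ×
        ({x : Pos d // x ∉ Set.range ι} → F) // ∀ a, IsUnit (x.1 a)} ≃
      ((a : Fin (Finset.univ.sup d + 1)) → GL {k : Fin t // d k = a} F) × ({x : Pos d // x ∉ Set.range ι} → F) :=
    { toFun := fun x => (fun a => (x.2 a).unit, x.1.2)
      invFun := fun y => ⟨(fun a => (y.1 a).1, y.2), fun a => (y.1 a).isUnit⟩
      left_inv := fun x => rfl
      right_inv := fun y => Prod.ext (funext fun a => Units.ext rfl) rfl }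
  have hGL : ∀ a : Fin (Finset.univ.sup d + 1), Nat.card (GL {k : Fin t // d k = a} F) =
      ∏ j : Fin (size d a), (Fintype.card F ^ size d a - Fintype.card F ^ (j : ℕ)) := fun a => by
    have hc : Fintype.card {k : Fin t // d k = (a : ℕ)} = size d a := Fintype.card_subtype _
    rw [← Matrix.card_GL_field (𝔽 := F) (size d a)]
    exact Nat.card_congr (Units.mapEquiv (Matrix.reindexAlgEquiv F F
      (Fintype.equivFinOfCardEq hc)).toMulEquiv).toEquiv
  rw [Nat.card_congr (e0.trans ((E.subtypeEquiv hdet).trans eU)), Nat.card_prod, Nat.card_pi, Nat.card_fun,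
    mul_comm, Nat.card_eq_fintype_card (α := F)]
  congr 1
  · rw [Nat.card_eq_fintype_card, Fintype.card_subtype_compl]
    congr 2
    exact (Fintype.card_congr eB).symm
  · simp only [hGL]
    exact Fin.prod_univ_eq_prod_range (fun i => ∏ j : Fin (size d i), (Fintype.card F ^ size d i - Fintype.card F ^ (j : ℕ))) _

theorem card_blk (hd : ∀ k, 1 ≤ d k) :
    Fintype.card (Blk d) = ∑ i ∈ Finset.range (Finset.univ.sup d + 1), size d i ^ 2 := by
  rw [Fintype.card_sigma, ← Fin.sum_univ_eq_sum_range (fun i => size d i ^ 2)]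
  refine Finset.sum_congr rfl fun a _ => ?_
  rw [Fintype.card_prod, Fintype.card_subtype, pow_two]
  rfl

theorem exponent_eq (hd : ∀ k, 1 ≤ d k) :
    Fintype.card (Pos d) - Fintype.card (Blk d) =
      2 * (∑ i ∈ Finset.range (Finset.univ.sup d + 1), ∑ j ∈ Finset.range (Finset.univ.sup d + 1),
          if i < j then i * size d i * size d j else 0) +
        ∑ i ∈ Finset.range (Finset.univ.sup d + 1), (i - 1) * size d i ^ 2 := by
  rw [card_pos d hd, sum_min, card_blk d hd]
  have h : ∀ i, i * size d i ^ 2 = (i - 1) * size d i ^ 2 + size d i ^ 2 := fun i => by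
    rcases Nat.eq_zero_or_pos i with rfl | hi
    · have : size d 0 = 0 := Finset.card_eq_zero.mpr (Finset.filter_eq_empty_iff.mpr fun k _ h => by
        have := hd k
        omega)
      rw [this]
      simp
    · obtain ⟨j, rfl⟩ : ∃ j, i = j + 1 := ⟨i - 1, by omega⟩
      rw [Nat.add_sub_cancel]
      ring
  rw [Finset.sum_congr rfl (fun i _ => h i), Finset.sum_add_distrib]
  omega

end CfsgLib.JordanCentralizer
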