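import Cfsg.Agent.JordanCentralizer.Count

/-!
The map from the commutant of a Jordan matrix onto the product of the matrix algebras of its block sizes.
-/

set_option autoImplicit false

open Matrix

namespace CfsgLib.JordanCentralizer

variable {F : Type*} [Field F] {t : ℕ} (d : Fin t → ℕ)

local notation "I" => (k : Fin t) × Fin (d k)

/-- The block of leading coordinates for the size `a`. -/
def blk (hd : ∀ k, 1 ≤ d k) (a : ℕ) (g : Matrix I I F) : Matrix {k : Fin t // d k = a} {k : Fin t // d k = a} F :=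
  (top hd g).toSquareBlock d a

/-- Membership in the commutant. -/
abbrev Comm (g : Matrix I I F) : Prop :=
  g * (Cfsg.jordanTypeMatrix d F - 1) = (Cfsg.jordanTypeMatrix d F - 1) * g

variable {d} (hd : ∀ k, 1 ≤ d k)

theorem blk_apply (a : ℕ) (g : Matrix I I F) (k l : {k : Fin t // d k = a}) :
    blk d hd a g k l = g ⟨k.1, ⟨0, hd k.1⟩⟩ ⟨l.1, ⟨0, hd l.1⟩⟩ := rfl

theorem blk_one (a : ℕ) : blk d hd a (1 : Matrix I I F) = 1 := by
  rw [blk, top_one]
  ext k l
  show (1 : Matrix (Fin t) (Fin t) F) k.1 l.1 = _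
  by_cases h : k = l
  · subst h; simp
  · rw [Matrix.one_apply_ne h, Matrix.one_apply_ne (fun e => h (Subtype.ext e))]

theorem blk_add (a : ℕ) (g h : Matrix I I F) : blk d hd a (g + h) = blk d hd a g + blk d hd a h := rfl

theorem blk_sub (a : ℕ) (g h : Matrix I I F) : blk d hd a (g - h) = blk d hd a g - blk d hd a h := rfl

theorem blk_smul (a : ℕ) (c : F) (g : Matrix I I F) : blk d hd a (c • g) = c • blk d hd a g := rfl

theorem blk_zero (a : ℕ) : blk d hd a (0 : Matrix I I F) = 0 := rfl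

theorem blk_mul (a : ℕ) {g h : Matrix I I F} (hg : Comm d g) (hh : Comm d h) :
    blk d hd a (g * h) = blk d hd a g * blk d hd a h := by
  classical
  ext k l
  rw [Matrix.mul_apply, blk, blk, blk, top_mul hd (rel_of_commute hg)]
  show (top hd g * top hd h) k.1 l.1 = ∑ j : {j : Fin t // d j = a}, top hd g k.1 j.1 * top hd h j.1 l.1
  rw [Matrix.mul_apply, ← Finset.sum_subtype (Finset.univ.filter fun j => d j = a) (by simp)
    (fun j => top hd g k.1 j * top hd h j l.1)]
  refine (Finset.sum_filter_of_ne fun j _ hne => ?_).symm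
  rcases lt_trichotomy (d j) a with hlt | he | hgt
  · exact absurd (by rw [top_triangular hd hg (show d j < d k.1 by rw [k.2]; exact hlt), zero_mul]) hne
  · exact he
  · exact absurd (by rw [top_triangular hd hh (show d l.1 < d j by rw [l.2]; exact hgt), mul_zero]) hne

theorem comm_one : Comm d (1 : Matrix I I F) := by rw [Comm, one_mul, mul_one]

theorem comm_mul {g h : Matrix I I F} (hg : Comm d g) (hh : Comm d h) : Comm d (g * h) :=
  (Commute.mul_left hg hh).eq

theorem comm_add {g h : Matrix I I F} (hg : Comm d g) (hh : Comm d h) : Comm d (g + h) :=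
  (Commute.add_left hg hh).eq

theorem comm_sub {g h : Matrix I I F} (hg : Comm d g) (hh : Comm d h) : Comm d (g - h) :=
  (Commute.sub_left hg hh).eq

theorem comm_smul {g : Matrix I I F} (hg : Comm d g) (c : F) : Comm d (c • g) :=
  (Commute.smul_left hg c).eq

theorem comm_inv {g : Matrix I I F} (hg : Comm d g) (hu : IsUnit g.det) : Comm d g⁻¹ := by
  show g⁻¹ * _ = _ * g⁻¹
  calc g⁻¹ * (Cfsg.jordanTypeMatrix d F - 1) = g⁻¹ * ((Cfsg.jordanTypeMatrix d F - 1) * g) * g⁻¹ := by
        rw [Matrix.mul_assoc, Matrix.mul_assoc, Matrix.mul_nonsing_inv _ hu, Matrix.mul_one]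
    _ = (Cfsg.jordanTypeMatrix d F - 1) * g⁻¹ := by
        rw [← show g * _ = _ * g from hg, Matrix.nonsing_inv_mul_cancel_left _ _ hu]

/-- Any family of blocks lifts to the commutant. -/
theorem exists_lift (M : (a : Fin (Finset.univ.sup d + 1)) → Matrix {k : Fin t // d k = a} {k : Fin t // d k = a} F) :
    ∃ g : Matrix I I F, Comm d g ∧ ∀ a : Fin (Finset.univ.sup d + 1), blk d hd a g = M a := by
  classical
  let c : Pos d → F := fun x =>
    if h : (x.1.2.2 : ℕ) = 0 ∧ d x.1.2.1 = d x.1.1 then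
      M ⟨d x.1.1, Nat.lt_succ_of_le (Finset.le_sup (Finset.mem_univ _))⟩ ⟨x.1.2.1, h.2⟩ ⟨x.1.1, rfl⟩
    else 0
  refine ⟨ofPos c, ofPos_commute c, fun a => ?_⟩
  ext k l
  rw [blk_apply, ofPos, dif_pos ⟨le_rfl, by show d k.1 ≤ 0 - 0 + d l.1; have := k.2; have := l.2; omega⟩]
  simp only [c]
  rw [dif_pos ⟨by simp, k.2.trans l.2.symm⟩]
  obtain ⟨k, hk⟩ := k
  obtain ⟨l, hl⟩ := l
  obtain ⟨a, ha⟩ := a
  simp only at hl
  subst hl
  rfl

variable [Finite F]

/-- Invertibility is decided on the blocks. -/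
theorem isUnit_of_blk {g : Matrix I I F} (hg : Comm d g)
    (h : ∀ a : Fin (Finset.univ.sup d + 1), IsUnit (blk d hd a g).det) : IsUnit g.det := by
  rw [← Matrix.isUnit_iff_isUnit_det, isUnit_iff hd hg, Matrix.isUnit_iff_isUnit_det,
    (top_triangular hd hg).det, IsUnit.prod_iff]
  intro a ha
  obtain ⟨k, -, rfl⟩ := Finset.mem_image.mp ha
  exact h ⟨d k, Nat.lt_succ_of_le (Finset.le_sup (Finset.mem_univ k))⟩

omit [Finite F] in
/-- The kernel of the map onto the blocks. -/
theorem card_kernel [Fintype F] :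
    Nat.card {g : Matrix I I F // Comm d g ∧ ∀ a : Fin (Finset.univ.sup d + 1), blk d hd a g = 0} =
      Fintype.card F ^ (Fintype.card (Pos d) - Fintype.card (Blk d)) := by
  classical
  let lead : Pos d → Prop := fun x => (x.1.2.2 : ℕ) = 0 ∧ d x.1.2.1 = d x.1.1
  have hiff : ∀ g : {g : Matrix I I F // Comm d g},
      (∀ a : Fin (Finset.univ.sup d + 1), blk d hd a g.1 = 0) ↔ ∀ x, lead x → commutantEquiv hd g x = 0 := by
    intro g
    constructor
    · rintro h ⟨⟨l, m, s⟩, hx⟩ ⟨hs, hml⟩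
      have e := congrFun (congrFun (h ⟨d l, Nat.lt_succ_of_le (Finset.le_sup (Finset.mem_univ _))⟩) ⟨m, hml⟩) ⟨l, rfl⟩
      rw [blk_apply, Matrix.zero_apply] at e
      show g.1 ⟨m, s⟩ ⟨l, ⟨0, hd l⟩⟩ = 0
      rwa [show s = ⟨0, hd m⟩ from Fin.ext hs]
    · intro h a
      ext k l
      exact h ⟨(l.1, ⟨k.1, ⟨0, hd k.1⟩⟩), by show d k.1 ≤ 0 + d l.1; have := k.2; have := l.2; omega⟩ ⟨rfl, k.2.trans l.2.symm⟩
  let e1 : {g : Matrix I I F // Comm d g ∧ ∀ a : Fin (Finset.univ.sup d + 1), blk d hd a g = 0} ≃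
      {c : Pos d → F // ∀ x, lead x → c x = 0} :=
    (Equiv.subtypeSubtypeEquivSubtypeInter _ _).symm.trans ((commutantEquiv hd).subtypeEquiv hiff)
  let e2 : {c : Pos d → F // ∀ x, lead x → c x = 0} ≃ ({x : Pos d // ¬ lead x} → F) :=
    { toFun := fun c x => c.1 x.1
      invFun := fun c => ⟨fun x => if h : lead x then 0 else c ⟨x, h⟩, fun x hx => dif_pos hx⟩
      left_inv := fun c => Subtype.ext (funext fun x => by
        show (if h : lead x then 0 else c.1 x) = c.1 x
        by_cases h : lead x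
        · rw [dif_pos h, c.2 x h]
        · rw [dif_neg h])
      right_inv := fun c => funext fun x => dif_neg x.2 }
  let e3 : {x : Pos d // lead x} ≃ Blk d :=
    { toFun := fun x => ⟨⟨d x.1.1.1, Nat.lt_succ_of_le (Finset.le_sup (Finset.mem_univ _))⟩, ⟨x.1.1.2.1, x.2.2⟩,
        ⟨x.1.1.1, rfl⟩⟩
      invFun := fun b => ⟨⟨(b.2.2.1, ⟨b.2.1.1, ⟨0, hd _⟩⟩), by simp [b.2.1.2, b.2.2.2]⟩, rfl,
        b.2.1.2.trans b.2.2.2.symm⟩
      left_inv := fun x => by
        obtain ⟨⟨⟨l, m, s⟩, hx⟩, hs, hml⟩ := x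
        have hs' : s = ⟨0, hd m⟩ := Fin.ext hs
        subst hs'
        rfl
      right_inv := fun b => by
        obtain ⟨⟨a, ha⟩, ⟨k, hk⟩, ⟨l, hl⟩⟩ := b
        simp only at hl
        subst hl
        rfl }
  rw [Nat.card_congr (e1.trans e2), Nat.card_fun, Nat.card_eq_fintype_card (α := F),
    Nat.card_eq_fintype_card, Fintype.card_subtype_compl, Fintype.card_congr e3]

end CfsgLib.JordanCentralizer
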