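import Cfsg.Agent.JordanCentralizer.UnitaryForm
import Cfsg.Agent.FormConj.Unitary
import Cfsg.Agent.UGeom.Count

/-!
The order of the centraliser of a unipotent element of the general unitary group.
-/

set_option autoImplicit false

open Matrix
open CfsgLib.FormConj (dag adj dag_add dag_mul dag_one dag_dag dag_smul adj_mul adj_one adj_add adj_algebraMap)

namespace CfsgLib.JordanCentralizer

variable {K : Type*} [Field K] {θ : K →+* K}

theorem dag_submatrix {ι κ : Type*} [Fintype ι] [Fintype κ] [DecidableEq ι] [DecidableEq κ] (A : Matrix ι ι K)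
    (f : κ ≃ ι) : dag θ (A.submatrix f f) = (dag θ A).submatrix f f := rfl

/-- Isometries of a form that is Hermitian up to a sign. -/
theorem card_isometry [Fintype K] {q : ℕ} (C : CfsgLib.UGeom.Conj K q) {ι : Type*} [Fintype ι] [DecidableEq ι]
    {G : Matrix ι ι K} (hG : IsUnit G.det) {ε : K} (hε : ε = 1 ∨ ε = -1) (hs : dag C.σ G = ε • G) :
    Nat.card {M : Matrix ι ι K // dag C.σ M * G * M = G} = Nat.card (Cfsg.GU (Fintype.card ι) K q) := by
  classical
  obtain ⟨η, hη, hηθ⟩ : ∃ η : K, η ≠ 0 ∧ C.σ η * ε = η := by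
    rcases hε with rfl | rfl
    · exact ⟨1, one_ne_zero, by simp⟩
    · obtain ⟨c, hc⟩ : ∃ c, C.σ c ≠ c := by
        by_contra h
        push Not at h
        exact C.ne_id (RingHom.ext h)
      exact ⟨c - C.σ c, sub_ne_zero.mpr (Ne.symm hc), by rw [map_sub, C.invol]; ring⟩
  obtain ⟨G', hG'⟩ : ∃ G', G' = η • G := ⟨_, rfl⟩
  have hG'u : IsUnit G'.det := by
    rw [hG', Matrix.det_smul]
    exact ((Ne.isUnit hη).pow _).mul hG
  have hG's : dag C.σ G' = (1 : K) • G' := by
    rw [one_smul, hG', dag_smul, hs, smul_smul, hηθ]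
  obtain ⟨P, hPu, -, hP⟩ := CfsgLib.FormConj.exists_congr_commute C.σ C.invol (G := (1 : Matrix ι ι K)) (G' := G')
    (A := 1) (ε := 1) (by simp) hG'u (by rw [dag_one, one_smul]) hG's (by simp [dag_one]) (by simp [dag_one])
    (Or.inl C.ne_id)
  rw [Matrix.mul_one] at hP
  have hscale : ∀ M : Matrix ι ι K, dag C.σ M * G' * M = G' ↔ dag C.σ M * G * M = G := by
    intro M
    rw [hG', Matrix.mul_smul, Matrix.smul_mul]
    exact (smul_right_injective (Matrix ι ι K) hη).eq_iff
  have hdP : IsUnit (dag C.σ P).det := CfsgLib.FormConj.isUnit_det_dag C.σ hPu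
  have hinv : dag C.σ P⁻¹ = (dag C.σ P)⁻¹ := (Matrix.inv_eq_left_inv (by
    rw [← dag_mul, Matrix.mul_nonsing_inv _ hPu, dag_one])).symm
  let e1 : {M : Matrix ι ι K // dag C.σ M * G * M = G} ≃ {N : Matrix ι ι K // dag C.σ N * N = 1} :=
    { toFun := fun M => ⟨P * M.1 * P⁻¹, by
        have h := (hscale M.1).mpr M.2
        rw [← hP] at h
        calc dag C.σ (P * M.1 * P⁻¹) * (P * M.1 * P⁻¹) =
            (dag C.σ P)⁻¹ * (dag C.σ M.1 * (dag C.σ P * P) * M.1) * P⁻¹ := by
              simp only [dag_mul, hinv, Matrix.mul_assoc]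
          _ = 1 := by
              rw [h, ← Matrix.mul_assoc, Matrix.nonsing_inv_mul _ hdP, Matrix.one_mul, Matrix.mul_nonsing_inv _ hPu]⟩
      invFun := fun N => ⟨P⁻¹ * N.1 * P, by
        refine (hscale _).mp ?_
        rw [← hP]
        calc dag C.σ (P⁻¹ * N.1 * P) * (dag C.σ P * P) * (P⁻¹ * N.1 * P) =
            dag C.σ P * (dag C.σ N.1 * ((dag C.σ P)⁻¹ * (dag C.σ P * (P * (P⁻¹ * (N.1 * P)))))) := by
              simp only [dag_mul, hinv, Matrix.mul_assoc]
          _ = dag C.σ P * P := by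
              rw [Matrix.nonsing_inv_mul_cancel_left _ _ hdP, Matrix.mul_nonsing_inv_cancel_left _ _ hPu,
                ← Matrix.mul_assoc (dag C.σ N.1), N.2, Matrix.one_mul]⟩
      left_inv := fun M => Subtype.ext (by
        show P⁻¹ * (P * M.1 * P⁻¹) * P = M.1
        simp only [Matrix.mul_assoc]
        rw [Matrix.nonsing_inv_mul _ hPu, Matrix.mul_one, Matrix.nonsing_inv_mul_cancel_left _ _ hPu])
      right_inv := fun N => Subtype.ext (by
        show P * (P⁻¹ * N.1 * P) * P⁻¹ = N.1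
        simp only [Matrix.mul_assoc]
        rw [Matrix.mul_nonsing_inv _ hPu, Matrix.mul_one, Matrix.mul_nonsing_inv_cancel_left _ _ hPu]) }
  let f := (Fintype.equivFin ι).symm
  let e2 : {N : Matrix ι ι K // dag C.σ N * N = 1} ≃
      {N : Matrix (Fin (Fintype.card ι)) (Fin (Fintype.card ι)) K // dag C.σ N * N = 1} :=
    (Matrix.reindex f.symm f.symm).subtypeEquiv fun N => by
      show _ ↔ dag C.σ (N.submatrix f f) * N.submatrix f f = 1
      rw [dag_submatrix, Matrix.submatrix_mul_equiv]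
      constructor
      · intro h; rw [h, Matrix.submatrix_one_equiv]
      · intro h
        have := congrArg (fun M => M.submatrix f.symm f.symm) h
        simpa [Matrix.submatrix_submatrix] using this
  let e3 : {N : Matrix (Fin (Fintype.card ι)) (Fin (Fintype.card ι)) K // dag C.σ N * N = 1} ≃
      ↥(Cfsg.GU (Fintype.card ι) K q) :=
    { toFun := fun N => ⟨⟨N.1, dag C.σ N.1, mul_eq_one_comm.mp N.2, N.2⟩,
        (CfsgLib.FormConj.mem_GU_dag q C.pow C.invol _).mpr N.2⟩
      invFun := fun g => ⟨g.1.1, (CfsgLib.FormConj.mem_GU_dag q C.pow C.invol _).mp g.2⟩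
      left_inv := fun N => rfl
      right_inv := fun g => Subtype.ext (Units.ext rfl) }
  exact Nat.card_congr ((e1.trans e2).trans e3)

variable {t : ℕ} {d : Fin t → ℕ}

local notation "I" => (k : Fin t) × Fin (d k)

theorem blk_algebraMap (hd : ∀ k, 1 ≤ d k) (a : ℕ) (c : K) :
    blk d hd a (algebraMap K (Matrix I I K) c) = c • 1 := by
  rw [Algebra.algebraMap_eq_smul_one, blk_smul, blk_one]

/-- The order of the isometry group of an invariant Hermitian form inside the commutant. -/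
theorem card_isometry_commutant [Fintype K] {q : ℕ} (C : CfsgLib.UGeom.Conj K q) (hd : ∀ k, 1 ≤ d k)
    {H : Matrix ((k : Fin t) × Fin (d k)) ((k : Fin t) × Fin (d k)) K} (hHu : IsUnit H.det)
    (hH : dag C.σ H = H) (hJ : dag C.σ (Cfsg.jordanTypeMatrix d K) * H * Cfsg.jordanTypeMatrix d K = H) :
    Nat.card {x : Matrix ((k : Fin t) × Fin (d k)) ((k : Fin t) × Fin (d k)) K //
        Comm d x ∧ adj C.σ H x * x = 1} =
      q ^ (Fintype.card (Pos d) - Fintype.card (Blk d)) *
        ∏ a : Fin (Finset.univ.sup d + 1), Nat.card (Cfsg.GU (size d a) K q) := by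
  classical
  have hσσ : ∀ g : Matrix I I K, adj C.σ H (adj C.σ H g) = g := adj_adj C.invol hH hHu
  have hσc : ∀ {g : Matrix I I K}, Comm d g → Comm d (adj C.σ H g) := fun hg => comm_adj hJ hHu hg
  have hσb : ∀ {g : Matrix I I K}, Comm d g → (∀ a : Fin (Finset.univ.sup d + 1), blk d hd a g = 1) →
      ∀ a : Fin (Finset.univ.sup d + 1), blk d hd a (adj C.σ H g) = 1 := fun hg h a => by
    rw [blk_adj hH hJ hd hHu a hg, h a, dag_one, Matrix.mul_one,
      Matrix.nonsing_inv_mul _ (isUnit_formBlk hH hJ hd hHu a)]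
  have hσm : ∀ x y : Matrix I I K, adj C.σ H (x * y) = adj C.σ H y * adj C.σ H x := adj_mul C.σ hHu
  -- square roots in the commutant
  have hroot : ∀ h : Matrix I I K, Comm d h → adj C.σ H h = h →
      (∀ a : Fin (Finset.univ.sup d + 1), blk d hd a h = 1) →
      ∃ r : Matrix I I K, Comm d r ∧ IsUnit r.det ∧ adj C.σ H r * r = h ∧
        ∀ a : Fin (Finset.univ.sup d + 1), blk d hd a r = 1 := by
    intro h hc hfix hblk
    rcases Nat.eq_zero_or_pos t with ht | ht
    · subst ht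
      exact ⟨1, comm_one, by simp, Subsingleton.elim _ _, fun a => Subsingleton.elim _ _⟩
    have hu : IsUnit h.det := isUnit_of_blk hd hc fun a => by rw [hblk a, Matrix.det_one]; exact isUnit_one
    have hm : h ∈ Algebra.adjoin K ({h} : Set (Matrix I I K)) := Algebra.subset_adjoin rfl
    obtain ⟨hnorm, -⟩ := CfsgLib.FormConj.exists_in_adjoin C.σ C.invol hHu (S := ({h} : Set (Matrix I I K)))
      (by intro a ha b hb; rw [Set.mem_singleton_iff.1 ha, Set.mem_singleton_iff.1 hb])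
      (by intro s hs; rw [Set.mem_singleton_iff.1 hs, hfix]; exact hm)
      (by intro s hs; rw [Set.mem_singleton_iff.1 hs, hfix, hfix])
      (E := 0) (zero_mem _) (mul_zero 0) (by simp [adj, dag]) (by
        obtain ⟨a, ha⟩ : ∃ a, C.σ a ≠ a := by
          by_contra hh'
          push Not at hh'
          exact C.ne_id (RingHom.ext hh')
        refine ⟨algebraMap K _ a, Subalgebra.algebraMap_mem _ _, ?_⟩
        rw [adj_algebraMap C.σ hHu, ← map_sub, add_zero, ← Matrix.isUnit_iff_isUnit_det]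
        exact (Ne.isUnit (sub_ne_zero.2 (Ne.symm ha))).map _)
    obtain ⟨X, hX, hXu, hXh⟩ := hnorm h hm hu hfix (mul_zero h)
    have key : ∀ r ∈ Algebra.adjoin K ({h} : Set (Matrix I I K)),
        Comm d r ∧ ∃ c : K, ∀ a : Fin (Finset.univ.sup d + 1), blk d hd a r = c • 1 := by
      intro r hr
      induction hr using Algebra.adjoin_induction with
      | mem x hx =>
        rw [Set.mem_singleton_iff.1 hx]
        exact ⟨hc, 1, fun a => by rw [hblk, one_smul]⟩
      | algebraMap c =>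
        refine ⟨?_, c, fun a => blk_algebraMap hd a c⟩
        rw [Algebra.algebraMap_eq_smul_one]
        exact comm_smul comm_one c
      | add x y _ _ hx hy =>
        obtain ⟨hx1, c, hx2⟩ := hx
        obtain ⟨hy1, e, hy2⟩ := hy
        exact ⟨comm_add hx1 hy1, c + e, fun a => by rw [blk_add, hx2, hy2, add_smul]⟩
      | mul x y _ _ hx hy =>
        obtain ⟨hx1, c, hx2⟩ := hx
        obtain ⟨hy1, e, hy2⟩ := hy
        exact ⟨comm_mul hx1 hy1, c * e, fun a => by
          rw [blk_mul hd a hx1 hy1, hx2, hy2, Matrix.smul_mul, Matrix.one_mul, smul_smul]⟩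
    obtain ⟨hXc, c, hXb⟩ := key X hX
    have hnc : C.σ c * c = 1 := by
      let k : Fin t := ⟨0, ht⟩
      let a : Fin (Finset.univ.sup d + 1) := ⟨d k, Nat.lt_succ_of_le (Finset.le_sup (Finset.mem_univ k))⟩
      have e := congrArg (blk d hd a) hXh
      rw [blk_mul hd a (hσc hXc) hXc, blk_adj hH hJ hd hHu a hXc, hXb, hblk, dag_smul, dag_one] at e
      simp only [Matrix.mul_smul, Matrix.smul_mul, Matrix.mul_one,
        Matrix.nonsing_inv_mul _ (isUnit_formBlk hH hJ hd hHu a), smul_smul] at e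
      simpa [mul_comm] using congrFun (congrFun e ⟨k, rfl⟩) ⟨k, rfl⟩
    have hc0 : c ≠ 0 := right_ne_zero_of_mul_eq_one hnc
    refine ⟨c⁻¹ • X, comm_smul hXc _, ?_, ?_, fun a => ?_⟩
    · rw [Matrix.det_smul]
      exact ((Ne.isUnit (inv_ne_zero hc0)).pow _).mul hXu
    · rw [show adj C.σ H (c⁻¹ • X) = C.σ c⁻¹ • adj C.σ H X by simp [adj, dag_smul], Matrix.smul_mul,
        Matrix.mul_smul, smul_smul, hXh, map_inv₀, ← mul_inv, hnc, inv_one, one_smul]
    · rw [blk_smul, hXb, smul_smul, inv_mul_cancel₀ hc0, one_smul]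
  let U := {x : Matrix I I K // Comm d x ∧ adj C.σ H x * x = 1}
  let P := (a : Fin (Finset.univ.sup d + 1)) →
    {M : Matrix {k : Fin t // d k = a} {k : Fin t // d k = a} K // dag C.σ M * formBlk H a * M = formBlk H a}
  let Kset := {x : Matrix I I K // Comm d x ∧ adj C.σ H x * x = 1 ∧
    ∀ a : Fin (Finset.univ.sup d + 1), blk d hd a x = 1}
  let φ : U → P := fun x a => ⟨blk d hd a x.1, by
    have e := congrArg (blk d hd (a : ℕ)) x.2.2
    rw [blk_mul hd a (hσc x.2.1) x.2.1, blk_adj hH hJ hd hHu a x.2.1, blk_one] at e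
    have := congrArg (formBlk H (a : ℕ) * ·) e
    simpa [Matrix.mul_assoc, Matrix.mul_nonsing_inv_cancel_left _ _ (isUnit_formBlk hH hJ hd hHu a)] using this⟩
  have hsurj : Function.Surjective φ := by
    intro M
    obtain ⟨g, hg, hgb⟩ := exists_lift hd (fun a => (M a).1)
    have hh : ∀ a : Fin (Finset.univ.sup d + 1), blk d hd a (adj C.σ H g * g) = 1 := fun a => by
      rw [blk_mul hd a (hσc hg) hg, blk_adj hH hJ hd hHu a hg, hgb, Matrix.mul_assoc, Matrix.mul_assoc,
        ← Matrix.mul_assoc (dag C.σ (M a).1), (M a).2, Matrix.nonsing_inv_mul _ (isUnit_formBlk hH hJ hd hHu a)]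
    obtain ⟨r, hr, hru, hrh, hrb⟩ := hroot _ (comm_mul (hσc hg) hg) (by rw [hσm, hσσ]) hh
    have hri : Comm d r⁻¹ := comm_inv hr hru
    refine ⟨⟨g * r⁻¹, comm_mul hg hri, ?_⟩, funext fun a => Subtype.ext ?_⟩
    · calc adj C.σ H (g * r⁻¹) * (g * r⁻¹) = adj C.σ H r⁻¹ * (adj C.σ H g * g) * r⁻¹ := by
            rw [hσm]; simp only [Matrix.mul_assoc]
        _ = adj C.σ H (r * r⁻¹) * (r * r⁻¹) := by rw [← hrh, hσm]; simp only [Matrix.mul_assoc]
        _ = 1 := by rw [Matrix.mul_nonsing_inv _ hru, adj_one C.σ hHu, Matrix.mul_one]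
    · have : blk d hd a r⁻¹ = 1 := by
        have e := congrArg (blk d hd (a : ℕ)) (Matrix.mul_nonsing_inv _ hru)
        rwa [blk_mul hd a hr hri, hrb, Matrix.one_mul, blk_one] at e
      show blk d hd a (g * r⁻¹) = _
      rw [blk_mul hd a hg hri, this, hgb, Matrix.mul_one]
  have hfib : ∀ M, Nat.card {x : U // φ x = M} = Nat.card Kset := by
    intro M
    obtain ⟨x0, rfl⟩ := hsurj M
    have hx0 : x0.1 * adj C.σ H x0.1 = 1 := mul_eq_one_comm.mp x0.2.2
    refine Nat.card_congr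
      { toFun := fun x => ⟨adj C.σ H x0.1 * x.1.1, comm_mul (hσc x0.2.1) x.1.2.1, ?_, fun a => ?_⟩
        invFun := fun y => ⟨⟨x0.1 * y.1, comm_mul x0.2.1 y.2.1, ?_⟩, funext fun a => Subtype.ext ?_⟩
        left_inv := fun x => Subtype.ext (Subtype.ext (by
          show x0.1 * (adj C.σ H x0.1 * x.1.1) = x.1.1
          rw [← Matrix.mul_assoc, hx0, Matrix.one_mul]))
        right_inv := fun y => Subtype.ext (by
          show adj C.σ H x0.1 * (x0.1 * y.1) = y.1
          rw [← Matrix.mul_assoc, x0.2.2, Matrix.one_mul]) }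
    · rw [hσm, hσσ, Matrix.mul_assoc, ← Matrix.mul_assoc x0.1, hx0, Matrix.one_mul, x.1.2.2]
    · have e : blk d hd a x.1.1 = blk d hd a x0.1 := congrArg Subtype.val (congrFun x.2 a)
      rw [blk_mul hd a (hσc x0.2.1) x.1.2.1, e, ← blk_mul hd a (hσc x0.2.1) x0.2.1, x0.2.2, blk_one]
    · rw [hσm, Matrix.mul_assoc, ← Matrix.mul_assoc (adj C.σ H x0.1), x0.2.2, Matrix.one_mul, y.2.2.1]
    · show blk d hd a (x0.1 * y.1) = blk d hd a x0.1
      rw [blk_mul hd a x0.2.1 y.2.1, y.2.2.2, Matrix.mul_one]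
  -- the kernel
  let R := {x : Matrix I I K // Comm d x ∧ ∀ a : Fin (Finset.univ.sup d + 1), blk d hd a x = 0}
  let E1 := {x : Matrix I I K // Comm d x ∧ ∀ a : Fin (Finset.univ.sup d + 1), blk d hd a x = 1}
  let S := {x : E1 // adj C.σ H x.1 = x.1}
  let S0 := {x : R // adj C.σ H x.1 = x.1}
  have hσ0 : ∀ x : R, ∀ a : Fin (Finset.univ.sup d + 1), blk d hd a (adj C.σ H x.1) = 0 := fun x a => by
    rw [blk_adj hH hJ hd hHu a x.2.1, x.2.2, show dag C.σ (0 : Matrix _ _ K) = 0 by simp [dag], Matrix.mul_zero,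
      Matrix.zero_mul]
  obtain ⟨c, hc⟩ : ∃ c, C.σ c ≠ c := by
    by_contra h
    push Not at h
    exact C.ne_id (RingHom.ext h)
  obtain ⟨η, hη⟩ : ∃ η, η = c - C.σ c := ⟨_, rfl⟩
  have hη0 : η ≠ 0 := hη ▸ sub_ne_zero.mpr (Ne.symm hc)
  have hση : C.σ η = -η := by rw [hη, map_sub, C.invol]; ring
  have hσs : ∀ (a : K) (x : Matrix I I K), adj C.σ H (a • x) = C.σ a • adj C.σ H x := fun a x => by
    simp [adj, dag_smul]
  have hσsub : ∀ x y : Matrix I I K, adj C.σ H (x - y) = adj C.σ H x - adj C.σ H y := fun x y => by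
    have := adj_add C.σ (G := H) (x - y) y
    rw [sub_add_cancel] at this
    rw [this, add_sub_cancel_right]
  have hR : Nat.card R = Nat.card S0 * Nat.card S0 := by
    rw [← Nat.card_prod]
    let B : R → Matrix I I K := fun r => η⁻¹ • (r.1 - adj C.σ H r.1)
    have hB : ∀ r, adj C.σ H (B r) = B r := fun r => by
      show adj C.σ H (η⁻¹ • _) = _
      rw [hσs, hσsub, hσσ, map_inv₀, hση, inv_neg, neg_smul, ← smul_neg, neg_sub]
    have hBR : ∀ r, Comm d (B r) ∧ ∀ a : Fin (Finset.univ.sup d + 1), blk d hd a (B r) = 0 := fun r =>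
      ⟨comm_smul (comm_sub r.2.1 (hσc r.2.1)) _, fun a => by
        show blk d hd a (η⁻¹ • _) = 0
        rw [blk_smul, blk_sub, r.2.2, hσ0, sub_zero, smul_zero]⟩
    have hA : ∀ r, adj C.σ H (r.1 - c • B r) = r.1 - c • B r := fun r => by
      rw [hσsub, hσs, hB]
      have h1 : η • B r = r.1 - adj C.σ H r.1 := smul_inv_smul₀ hη0 _
      rw [hη, sub_smul] at h1
      rw [show adj C.σ H r.1 = r.1 - (c • B r - C.σ c • B r) by rw [h1]; abel]
      abel
    refine Nat.card_congr
      { toFun := fun r => (⟨⟨r.1 - c • B r, comm_sub r.2.1 (comm_smul (hBR r).1 _), fun a => by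
            rw [blk_sub, blk_smul, r.2.2, (hBR r).2, smul_zero, sub_zero]⟩, hA r⟩, ⟨⟨B r, hBR r⟩, hB r⟩)
        invFun := fun p => ⟨p.1.1.1 + c • p.2.1.1, comm_add p.1.1.2.1 (comm_smul p.2.1.2.1 _), fun a => by
          rw [blk_add, blk_smul, p.1.1.2.2, p.2.1.2.2, smul_zero, add_zero]⟩
        left_inv := fun r => Subtype.ext (sub_add_cancel _ _)
        right_inv := fun p => ?_ }
    have h2 : η⁻¹ • ((p.1.1.1 + c • p.2.1.1) - adj C.σ H (p.1.1.1 + c • p.2.1.1)) = p.2.1.1 := by
      rw [adj_add, hσs, p.1.2, p.2.2, add_sub_add_left_eq_sub, ← sub_smul, ← hη, inv_smul_smul₀ hη0]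
    refine Prod.ext (Subtype.ext (Subtype.ext ?_)) (Subtype.ext (Subtype.ext h2))
    show p.1.1.1 + c • p.2.1.1 - c • (η⁻¹ • _) = _
    rw [h2, add_sub_cancel_right]
  let e01 : E1 ≃ R :=
    { toFun := fun x => ⟨x.1 - 1, comm_sub x.2.1 comm_one, fun a => by rw [blk_sub, x.2.2, blk_one, sub_self]⟩
      invFun := fun x => ⟨x.1 + 1, comm_add x.2.1 comm_one, fun a => by rw [blk_add, x.2.2, blk_one, zero_add]⟩
      left_inv := fun x => Subtype.ext (sub_add_cancel _ _)
      right_inv := fun x => Subtype.ext (add_sub_cancel_right _ _) }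
  have hS : Nat.card S = Nat.card S0 := Nat.card_congr (e01.subtypeEquiv fun x => by
    show _ ↔ adj C.σ H (x.1 - 1) = x.1 - 1
    rw [hσsub, adj_one C.σ hHu, sub_left_inj])
  let ν : E1 → S := fun x => ⟨⟨adj C.σ H x.1 * x.1, comm_mul (hσc x.2.1) x.2.1, fun a => by
    rw [blk_mul hd a (hσc x.2.1) x.2.1, hσb x.2.1 x.2.2, x.2.2, Matrix.one_mul]⟩, by
    show adj C.σ H (adj C.σ H x.1 * x.1) = adj C.σ H x.1 * x.1
    rw [hσm, hσσ]⟩
  have hνfib : ∀ s, Nat.card {x : E1 // ν x = s} = Nat.card Kset := by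
    rintro ⟨⟨h, hc', hb⟩, hfix⟩
    obtain ⟨x0, hx0c, hx0u, hx0, hx0b⟩ := hroot h hc' hfix hb
    have hi : Comm d x0⁻¹ := comm_inv hx0c hx0u
    have hib : ∀ a : Fin (Finset.univ.sup d + 1), blk d hd a x0⁻¹ = 1 := fun a => by
      have e := congrArg (blk d hd (a : ℕ)) (Matrix.mul_nonsing_inv _ hx0u)
      rwa [blk_mul hd a hx0c hi, hx0b, Matrix.one_mul, blk_one] at e
    refine Nat.card_congr
      { toFun := fun x => ⟨x.1.1 * x0⁻¹, comm_mul x.1.2.1 hi, ?_, fun a => ?_⟩
        invFun := fun y => ⟨⟨y.1 * x0, comm_mul y.2.1 hx0c, fun a => ?_⟩, Subtype.ext (Subtype.ext ?_)⟩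
        left_inv := fun x => Subtype.ext (Subtype.ext (Matrix.nonsing_inv_mul_cancel_right x0 _ hx0u))
        right_inv := fun y => Subtype.ext (Matrix.mul_nonsing_inv_cancel_right x0 _ hx0u) }
    · have hx : adj C.σ H x.1.1 * x.1.1 = h := congrArg (fun s : S => s.1.1) x.2
      calc adj C.σ H (x.1.1 * x0⁻¹) * (x.1.1 * x0⁻¹) = adj C.σ H x0⁻¹ * (adj C.σ H x.1.1 * x.1.1) * x0⁻¹ := by
            rw [hσm]; simp only [Matrix.mul_assoc]
        _ = adj C.σ H (x0 * x0⁻¹) * (x0 * x0⁻¹) := by rw [hx, ← hx0, hσm]; simp only [Matrix.mul_assoc]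
        _ = 1 := by rw [Matrix.mul_nonsing_inv _ hx0u, adj_one C.σ hHu, Matrix.mul_one]
    · rw [blk_mul hd a x.1.2.1 hi, x.1.2.2, hib, Matrix.one_mul]
    · rw [blk_mul hd a y.2.1 hx0c, y.2.2.2, hx0b, Matrix.one_mul]
    · show adj C.σ H (y.1 * x0) * (y.1 * x0) = h
      rw [hσm, Matrix.mul_assoc, ← Matrix.mul_assoc (adj C.σ H y.1), y.2.2.1, Matrix.one_mul, hx0]
  have hcount : ∀ {α β : Type _} [Finite α] [Finite β] (f : α → β) (m : ℕ),
      (∀ b, Nat.card {a // f a = b} = m) → Nat.card α = Nat.card β * m := by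
    intro α β _ _ f m h
    haveI := Fintype.ofFinite β
    rw [← Nat.card_congr (Equiv.sigmaFiberEquiv f), Nat.card_sigma, Finset.sum_congr rfl (fun b _ => h b),
      Finset.sum_const, Finset.card_univ, Nat.card_eq_fintype_card, smul_eq_mul]
  have hE : Nat.card R = Nat.card S0 * Nat.card Kset := by
    rw [← hS, ← Nat.card_congr e01]
    exact hcount ν _ hνfib
  have hQ : Nat.card R = (q ^ (Fintype.card (Pos d) - Fintype.card (Blk d))) ^ 2 := by
    rw [← pow_mul, mul_comm, pow_mul, ← C.card]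
    exact card_kernel hd
  have hS0 : Nat.card S0 = q ^ (Fintype.card (Pos d) - Fintype.card (Blk d)) := by
    refine Nat.pow_left_injective two_ne_zero ?_
    show Nat.card S0 ^ 2 = _ ^ 2
    rw [← hQ, hR, sq]
  have hK : Nat.card Kset = q ^ (Fintype.card (Pos d) - Fintype.card (Blk d)) := by
    have h := hE.symm.trans hQ
    rw [hS0, sq] at h
    exact Nat.eq_of_mul_eq_mul_left (pow_pos (by have := C.two_le; omega) _) h
  show Nat.card U = _
  rw [hcount φ _ hfib, hK, mul_comm, Nat.card_pi]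
  congr 1
  refine Finset.prod_congr rfl fun a _ => ?_
  rw [card_isometry C (isUnit_formBlk hH hJ hd hHu a) (neg_one_pow_eq_or K ((a : ℕ) - 1)) (dag_formBlk hH hJ a),
    show Fintype.card {k : Fin t // d k = (a : ℕ)} = size d a from Fintype.card_subtype _]

/-- The centraliser of a unipotent element of given Jordan type in the general unitary group. -/
theorem card_centralizer_unitary [Fintype K] {q n : ℕ} (C : CfsgLib.UGeom.Conj K q) (hd : ∀ k, 1 ≤ d k)
    (e : ((k : Fin t) × Fin (d k)) ≃ Fin n) (u : ↥(Cfsg.GU n K q))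
    (hu : IsConj (Matrix.reindex e e (Cfsg.jordanTypeMatrix d K)) ((u : GL (Fin n) K) : Matrix (Fin n) (Fin n) K)) :
    Nat.card ↥(Subgroup.centralizer ({u} : Set ↥(Cfsg.GU n K q))) =
      q ^ (Fintype.card (Pos d) - Fintype.card (Blk d)) *
        ∏ a : Fin (Finset.univ.sup d + 1), Nat.card (Cfsg.GU (size d a) K q) := by
  classical
  obtain ⟨c, hc⟩ := hu
  obtain ⟨P, hPdef⟩ : ∃ P : Matrix (Fin n) (Fin n) K, P = c.val := ⟨_, rfl⟩
  obtain ⟨A, hAdef⟩ : ∃ A : Matrix (Fin n) (Fin n) K, A = ((u : GL (Fin n) K) : Matrix (Fin n) (Fin n) K) := ⟨_, rfl⟩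
  have hcA : P * Matrix.reindex e e (Cfsg.jordanTypeMatrix d K) = A * P := by rw [hPdef, hAdef]; exact hc.eq
  have hPu : IsUnit P.det := by rw [hPdef, ← Matrix.isUnit_iff_isUnit_det]; exact c.isUnit
  have hA : dag C.σ A * A = 1 := by
    rw [hAdef]; exact (CfsgLib.FormConj.mem_GU_dag q C.pow C.invol _).mp u.2
  obtain ⟨H, hHdef⟩ : ∃ H, H = (dag C.σ P * P).submatrix e e := ⟨_, rfl⟩
  have hH : dag C.σ H = H := by rw [hHdef, dag_submatrix, dag_mul, dag_dag C.σ C.invol]
  have hHu : IsUnit H.det := by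
    rw [hHdef, Matrix.det_submatrix_equiv_self, Matrix.det_mul]
    exact (CfsgLib.FormConj.isUnit_det_dag C.σ hPu).mul hPu
  have hJ : dag C.σ (Cfsg.jordanTypeMatrix d K) * H * Cfsg.jordanTypeMatrix d K = H := by
    obtain ⟨R, hR⟩ : ∃ R, R = Matrix.reindex e e (Cfsg.jordanTypeMatrix d K) := ⟨_, rfl⟩
    have hJR : Cfsg.jordanTypeMatrix d K = R.submatrix e e := by rw [hR]; ext i j; simp
    have h1 : dag C.σ R * (dag C.σ P * P) * R = dag C.σ P * P := by
      rw [← hR] at hcA
      calc dag C.σ R * (dag C.σ P * P) * R = dag C.σ (P * R) * (P * R) := by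
            rw [dag_mul]; simp only [Matrix.mul_assoc]
        _ = dag C.σ P * (dag C.σ A * A) * P := by rw [hcA, dag_mul]; simp only [Matrix.mul_assoc]
        _ = dag C.σ P * P := by rw [hA, Matrix.mul_one]
    rw [hJR, hHdef, dag_submatrix, Matrix.submatrix_mul_equiv, Matrix.submatrix_mul_equiv, h1]
  rw [← card_isometry_commutant C hd hHu hH hJ]
  let f : Matrix (Fin n) (Fin n) K ≃ Matrix ((k : Fin t) × Fin (d k)) ((k : Fin t) × Fin (d k)) K :=
    { toFun := fun g => (P⁻¹ * g * P).submatrix e e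
      invFun := fun x => P * Matrix.reindex e e x * P⁻¹
      left_inv := fun g => by
        have h : Matrix.reindex e e ((P⁻¹ * g * P).submatrix e e) = P⁻¹ * g * P := by ext i j; simp
        show P * Matrix.reindex e e ((P⁻¹ * g * P).submatrix e e) * P⁻¹ = g
        rw [h]
        simp only [Matrix.mul_assoc]
        rw [Matrix.mul_nonsing_inv _ hPu, Matrix.mul_one, Matrix.mul_nonsing_inv_cancel_left _ _ hPu]
      right_inv := fun x => by
        show (P⁻¹ * (P * Matrix.reindex e e x * P⁻¹) * P).submatrix e e = x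
        simp only [Matrix.mul_assoc]
        rw [Matrix.nonsing_inv_mul _ hPu, Matrix.mul_one, Matrix.nonsing_inv_mul_cancel_left _ _ hPu]
        ext i j; simp }
  have hiff : ∀ g : Matrix (Fin n) (Fin n) K,
      (dag C.σ g * g = 1 ∧ g * A = A * g) ↔ (Comm d (f g) ∧ adj C.σ H (f g) * f g = 1) := by
    intro g
    have hinj : Function.Injective fun M : Matrix (Fin n) (Fin n) K => M.submatrix e e :=
      fun M M' h => by
        have := congrArg (fun N => Matrix.reindex e e N) h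
        simpa using this
    have hJR : Cfsg.jordanTypeMatrix d K = (P⁻¹ * A * P).submatrix e e := by
      rw [Matrix.mul_assoc, ← hcA, Matrix.nonsing_inv_mul_cancel_left _ _ hPu]
      ext i j; simp
    have hc1 : Comm d (f g) ↔ g * A = A * g := by
      rw [comm_iff, commute_iff_eq, hJR]
      show (P⁻¹ * g * P).submatrix e e * _ = _ * (P⁻¹ * g * P).submatrix e e ↔ _
      rw [Matrix.submatrix_mul_equiv, Matrix.submatrix_mul_equiv, hinj.eq_iff]
      simp only [Matrix.mul_assoc, Matrix.mul_nonsing_inv_cancel_left _ _ hPu]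
      constructor
      · intro h
        have := congrArg (fun M => P * M * P⁻¹) h
        simpa [Matrix.mul_assoc, Matrix.mul_nonsing_inv_cancel_left _ _ hPu, Matrix.mul_nonsing_inv _ hPu] using this
      · intro h
        rw [← Matrix.mul_assoc g, h, Matrix.mul_assoc]
    have hc2 : adj C.σ H (f g) * f g = 1 ↔ dag C.σ g * g = 1 := by
      have h1 : adj C.σ H (f g) * f g = 1 ↔ dag C.σ (f g) * H * f g = H := by
        rw [adj, Matrix.mul_assoc, Matrix.mul_assoc, ← Matrix.mul_assoc (dag C.σ (f g))]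
        constructor
        · intro h
          have := congrArg (H * ·) h
          simpa [Matrix.mul_nonsing_inv_cancel_left _ _ hHu] using this
        · intro h; rw [h, Matrix.nonsing_inv_mul _ hHu]
      rw [h1, hHdef]
      show dag C.σ ((P⁻¹ * g * P).submatrix e e) * _ * (P⁻¹ * g * P).submatrix e e = _ ↔ _
      rw [dag_submatrix, Matrix.submatrix_mul_equiv, Matrix.submatrix_mul_equiv, hinj.eq_iff]
      have hdP : IsUnit (dag C.σ P).det := CfsgLib.FormConj.isUnit_det_dag C.σ hPu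
      have hinv : dag C.σ P⁻¹ * dag C.σ P = 1 := by rw [← dag_mul, Matrix.mul_nonsing_inv _ hPu, dag_one]
      have h2 : dag C.σ (P⁻¹ * g * P) * (dag C.σ P * P) * (P⁻¹ * g * P) = dag C.σ P * (dag C.σ g * g) * P := by
        simp only [dag_mul, Matrix.mul_assoc, Matrix.mul_nonsing_inv_cancel_left _ _ hPu]
        rw [← Matrix.mul_assoc (dag C.σ P⁻¹), hinv, Matrix.one_mul]
      rw [h2]
      constructor
      · intro h
        have := congrArg (fun M => (dag C.σ P)⁻¹ * M * P⁻¹) h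
        simpa [Matrix.mul_assoc, Matrix.nonsing_inv_mul_cancel_left _ _ hdP, Matrix.mul_nonsing_inv _ hPu] using this
      · intro h; rw [h, Matrix.mul_one]
    rw [hc1, hc2]
    exact and_comm
  refine Nat.card_congr (Equiv.trans ?_ (f.subtypeEquiv hiff))
  exact
    { toFun := fun g => ⟨g.1.1.1, (CfsgLib.FormConj.mem_GU_dag q C.pow C.invol _).mp g.1.2, by
        rw [hAdef]
        exact congrArg (fun y : ↥(Cfsg.GU n K q) => (y.1.1 : Matrix (Fin n) (Fin n) K))
          (Subgroup.mem_centralizer_singleton_iff.mp g.2)⟩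
      invFun := fun g => ⟨⟨⟨g.1, dag C.σ g.1, mul_eq_one_comm.mp g.2.1, g.2.1⟩,
          (CfsgLib.FormConj.mem_GU_dag q C.pow C.invol _).mpr g.2.1⟩,
        Subgroup.mem_centralizer_singleton_iff.mpr (Subtype.ext (Units.ext (by
          show g.1 * ((u : GL (Fin n) K) : Matrix (Fin n) (Fin n) K) =
            ((u : GL (Fin n) K) : Matrix (Fin n) (Fin n) K) * g.1
          rw [← hAdef]
          exact g.2.2)))⟩
      left_inv := fun g => Subtype.ext (Subtype.ext (Units.ext rfl))
      right_inv := fun g => rfl }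

end CfsgLib.JordanCentralizer
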