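import Cfsg.Agent.JordanCentralizer.Levi
import Cfsg.Agent.FormConj.Adjoint

/-!
Hermitian forms invariant under a unipotent Jordan matrix, and the adjoint on its commutant.
-/

set_option autoImplicit false

open Matrix
open CfsgLib.FormConj (dag adj dag_add dag_mul dag_one dag_dag dag_smul adj_mul adj_one)

namespace CfsgLib.JordanCentralizer

variable {K : Type*} [Field K] {t : ℕ} {d : Fin t → ℕ}

local notation "I" => (k : Fin t) × Fin (d k)
local notation "J" => Cfsg.jordanTypeMatrix d K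

/-- The entries of a form, extended by zero. -/
def hz (H : Matrix I I K) (k m : Fin t) (s j : ℕ) : K :=
  if h : s < d k ∧ j < d m then H ⟨k, ⟨s, h.1⟩⟩ ⟨m, ⟨j, h.2⟩⟩ else 0

theorem hz_of_lt (H : Matrix I I K) (k m : Fin t) (s : Fin (d k)) (j : Fin (d m)) :
    hz H k m s j = H ⟨k, s⟩ ⟨m, j⟩ := dif_pos ⟨s.2, j.2⟩

theorem hz_of_ge (H : Matrix I I K) {k m : Fin t} {s j : ℕ} (h : d k ≤ s ∨ d m ≤ j) : hz H k m s j = 0 :=
  dif_neg fun h' => by omega

/-- The antidiagonal part of a form. -/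
def formTop (H : Matrix I I K) : Matrix (Fin t) (Fin t) K := Matrix.of fun k m => hz H k m (d k - 1) 0

/-- The form induced on the blocks of size `a`. -/
def formBlk (H : Matrix I I K) (a : ℕ) : Matrix {k : Fin t // d k = a} {k : Fin t // d k = a} K :=
  (formTop H).toSquareBlock d a

variable {θ : K →+* K} {H : Matrix ((k : Fin t) × Fin (d k)) ((k : Fin t) × Fin (d k)) K}
  (hθ : ∀ a, θ (θ a) = a) (hH : dag θ H = H)
  (hJ : dag θ (Cfsg.jordanTypeMatrix d K) * H * Cfsg.jordanTypeMatrix d K = H)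

include hH in
theorem hz_symm (k m : Fin t) (s j : ℕ) : θ (hz H k m s j) = hz H m k j s := by
  by_cases h : s < d k ∧ j < d m
  · rw [hz, dif_pos h, hz, dif_pos h.symm]
    exact congrFun (congrFun hH ⟨m, ⟨j, h.2⟩⟩) ⟨k, ⟨s, h.1⟩⟩
  · rw [hz, dif_neg h, hz, dif_neg (fun h' => h h'.symm), map_zero]

include hH hJ in
theorem hz_rel (k m : Fin t) (s j : ℕ) : hz H k m (s + 1) j + hz H k m s (j + 1) + hz H k m (s + 1) (j + 1) = 0 := by
  by_cases hs : s < d k
  swap
  · rw [hz_of_ge H (Or.inl (by omega)), hz_of_ge H (Or.inl (by omega)), hz_of_ge H (Or.inl (by omega))]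
    simp
  by_cases hj : j < d m
  swap
  · rw [hz_of_ge H (Or.inr (by omega)), hz_of_ge H (Or.inr (by omega)), hz_of_ge H (Or.inr (by omega))]
    simp
  obtain ⟨N, hN⟩ : ∃ N, N = J - 1 := ⟨_, rfl⟩
  have hJN : J = 1 + N := by rw [hN]; abel
  have hA : dag θ (H * N) + H * N + dag θ (H * N) * N = 0 := by
    rw [dag_mul, hH]
    have h1 := hJ
    rw [hJN, dag_add, dag_one] at h1
    have h2 : (1 + dag θ N) * H * (1 + N) = H + (dag θ N * H + H * N + dag θ N * H * N) := by noncomm_ring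
    rw [h2] at h1
    exact add_eq_left.mp h1
  have hR : ∀ (m' : Fin t) (j' : ℕ) (hj' : j' < d m') (k' : Fin t) (s' : ℕ) (hs' : s' < d k'),
      (H * N) ⟨m', ⟨j', hj'⟩⟩ ⟨k', ⟨s', hs'⟩⟩ = hz H m' k' j' (s' + 1) := by
    intro m' j' hj' k' s' hs'
    rw [hN, mul_shift_apply]
    by_cases h : s' + 1 < d k'
    · rw [dif_pos h, hz, dif_pos ⟨hj', h⟩]
    · rw [dif_neg h, hz_of_ge H (Or.inr (by omega))]
  have hL : ∀ (m' : Fin t) (j' : ℕ) (hj' : j' < d m'),
      dag θ (H * N) ⟨k, ⟨s, hs⟩⟩ ⟨m', ⟨j', hj'⟩⟩ = hz H k m' (s + 1) j' := by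
    intro m' j' hj'
    show θ ((H * N) ⟨m', ⟨j', hj'⟩⟩ ⟨k, ⟨s, hs⟩⟩) = _
    rw [hR, hz_symm hH]
  have e := congrFun (congrFun hA ⟨k, ⟨s, hs⟩⟩) ⟨m, ⟨j, hj⟩⟩
  rw [Matrix.add_apply, Matrix.add_apply, hL m j hj, hR, Matrix.zero_apply, hN, mul_shift_apply, ← hN] at e
  by_cases h : j + 1 < d m
  · rw [dif_pos h, hL m _ h] at e
    exact e
  · rw [dif_neg h, add_zero] at e
    rw [hz_of_ge H (s := s + 1) (j := j + 1) (Or.inr (by omega)), add_zero]
    exact e

include hH hJ in
theorem hz_eq_zero {k m : Fin t} {s j : ℕ} (h : d m ≤ s + j) : hz H k m s j = 0 := by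
  have key : ∀ n s j, d m ≤ j + n → d m ≤ s + j → hz H k m s j = 0 := by
    intro n
    induction n with
    | zero => intro s j h1 _; exact hz_of_ge H (Or.inr (by omega))
    | succ n ih =>
      intro s j h1 h2
      by_cases hj : d m ≤ j
      · exact hz_of_ge H (Or.inr hj)
      · have e := hz_rel hH hJ k m (s - 1) j
        rw [show s - 1 + 1 = s by omega, ih (s - 1) (j + 1) (by omega) (by omega),
          ih s (j + 1) (by omega) (by omega), add_zero, add_zero] at e
        exact e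
  exact key (d m) s j (by omega) h

include hH hJ in
theorem hz_eq_zero' {k m : Fin t} {s j : ℕ} (h : d k ≤ s + j) : hz H k m s j = 0 := by
  rw [← hz_symm hH m k j s, hz_eq_zero hH hJ (by omega), map_zero]

include hH hJ in
theorem hz_antidiag {k m : Fin t} {a : ℕ} (hm : d m = a) (i : ℕ) (hi : i < a) :
    hz H k m (a - 1 - i) i = (-1) ^ i * hz H k m (a - 1) 0 := by
  induction i with
  | zero => simp
  | succ i ih =>
    have e := hz_rel hH hJ k m (a - 1 - (i + 1)) i
    rw [show a - 1 - (i + 1) + 1 = a - 1 - i by omega, ih (by omega),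
      hz_eq_zero hH hJ (s := a - 1 - i) (j := i + 1) (by omega), add_zero] at e
    rw [pow_succ]
    linear_combination e

include hH hJ in
theorem dag_formBlk (a : ℕ) : dag θ (formBlk H a) = (-1 : K) ^ (a - 1) • formBlk H a := by
  ext k m
  show θ (hz H m.1 k.1 (d m.1 - 1) 0) = (-1 : K) ^ (a - 1) * hz H k.1 m.1 (d k.1 - 1) 0
  rw [hz_symm hH, k.2, m.2]
  rcases Nat.eq_zero_or_pos a with h0 | ha
  · subst h0
    rw [hz_of_ge H (Or.inl (by have := k.2; omega)), mul_zero]
  · rw [← hz_antidiag hH hJ m.2 (a - 1) (by omega), Nat.sub_self]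

include hH hJ in
theorem formTop_triangular : Matrix.BlockTriangular (formTop H) d := fun k m h =>
  hz_eq_zero hH hJ (by have := h; omega)

include hH hJ in
theorem isUnit_formBlk (hd : ∀ k, 1 ≤ d k) (hHu : IsUnit H.det) (a : ℕ) : IsUnit (formBlk H a).det := by
  classical
  have hT : IsUnit (formTop H).det := by
    rw [← Matrix.isUnit_iff_isUnit_det, ← Matrix.vecMul_injective_iff_isUnit]
    have hinj : ∀ v, v ᵥ* formTop H = 0 → v = 0 := by
      intro v hv
      let w : I → K := fun x => if (x.2 : ℕ) = d x.1 - 1 then v x.1 else 0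
      have hw : w ᵥ* H = 0 := by
        funext y
        obtain ⟨m, j⟩ := y
        have hsum : (w ᵥ* H) ⟨m, j⟩ = ∑ k, v k * hz H k m (d k - 1) j := by
          show ∑ x, w x * H x ⟨m, j⟩ = _
          rw [Fintype.sum_sigma]
          refine Finset.sum_congr rfl fun k _ => ?_
          rw [Finset.sum_eq_single (⟨d k - 1, by have := hd k; omega⟩ : Fin (d k))]
          · show (if d k - 1 = d k - 1 then v k else 0) * _ = _
            rw [if_pos rfl, ← hz_of_lt H k m _ j]
          · intro s _ hs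
            show (if (s : ℕ) = d k - 1 then v k else 0) * _ = 0
            rw [if_neg (fun e => hs (Fin.ext e)), zero_mul]
          · simp
        rw [hsum]
        rcases Nat.eq_zero_or_pos (j : ℕ) with h0 | h0
        · rw [h0]; exact congrFun hv m
        · refine Finset.sum_eq_zero fun k _ => ?_
          rw [hz_eq_zero' hH hJ (by omega), mul_zero]
      have hw0 : w = 0 := by
        have := congrArg (fun u => u ᵥ* H⁻¹) hw
        simpa [Matrix.vecMul_vecMul, Matrix.mul_nonsing_inv _ hHu] using this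
      funext k
      have := congrFun hw0 ⟨k, ⟨d k - 1, by have := hd k; omega⟩⟩
      simpa [w] using this
    intro v w hvw
    exact sub_eq_zero.mp (hinj _ (by rw [Matrix.sub_vecMul]; exact sub_eq_zero.mpr hvw))
  by_cases ha : a ∈ Finset.univ.image d
  · rw [(formTop_triangular hH hJ).det, IsUnit.prod_iff] at hT
    exact hT a ha
  · haveI : IsEmpty {k : Fin t // d k = a} :=
      ⟨fun k => ha (Finset.mem_image.mpr ⟨k.1, Finset.mem_univ _, k.2⟩)⟩
    rw [Matrix.det_isEmpty]
    exact isUnit_one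

theorem comm_iff {g : Matrix I I K} : Comm d g ↔ Commute g J := by
  show g * (J - 1) = (J - 1) * g ↔ g * J = J * g
  rw [mul_sub, sub_mul, mul_one, one_mul, sub_left_inj]

include hJ in
theorem comm_adj (hHu : IsUnit H.det) {g : Matrix I I K} (hg : Comm d g) : Comm d (adj θ H g) := by
  have hJu : IsUnit (J).det := by
    have := congrArg Matrix.det hJ
    rw [Matrix.det_mul, Matrix.det_mul] at this
    refine isUnit_of_mul_isUnit_right (x := (dag θ J).det * H.det) ?_
    rw [this]; exact hHu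
  have hadj : adj θ H J = J⁻¹ := by
    refine (Matrix.inv_eq_left_inv ?_).symm
    rw [adj, Matrix.mul_assoc, Matrix.mul_assoc, ← Matrix.mul_assoc (dag θ J), hJ, Matrix.nonsing_inv_mul _ hHu]
  have h : Commute (adj θ H g) J⁻¹ := by
    rw [← hadj]
    show _ * _ = _ * _
    rw [← adj_mul θ hHu, ← adj_mul θ hHu, (comm_iff.mp hg).eq]
  refine comm_iff.mpr ?_
  show _ * _ = _ * _
  calc adj θ H g * J = J * (J⁻¹ * adj θ H g) * J := by
        rw [Matrix.mul_nonsing_inv_cancel_left _ _ hJu]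
    _ = J * adj θ H g := by
        rw [← h.eq, Matrix.mul_assoc, Matrix.mul_assoc, Matrix.nonsing_inv_mul _ hJu, Matrix.mul_one]

include hθ hH in
theorem adj_adj (hHu : IsUnit H.det) (g : Matrix I I K) : adj θ H (adj θ H g) = g := by
  have h1 : dag θ (H⁻¹) = H⁻¹ := by
    refine (Matrix.inv_eq_left_inv ?_).symm
    conv_lhs => arg 2; rw [← hH]
    rw [← dag_mul, Matrix.mul_nonsing_inv _ hHu, dag_one]
  rw [adj, adj, dag_mul, dag_mul, dag_dag θ hθ, hH, h1]
  simp only [Matrix.mul_assoc]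
  rw [Matrix.nonsing_inv_mul_cancel_left _ _ hHu, Matrix.nonsing_inv_mul _ hHu, Matrix.mul_one]

include hH hJ in
/-- The adjoint on the blocks. -/
theorem blk_adj (hd : ∀ k, 1 ≤ d k) (hHu : IsUnit H.det) (a : ℕ) {g : Matrix I I K} (hg : Comm d g) :
    blk d hd a (adj θ H g) = (formBlk H a)⁻¹ * dag θ (blk d hd a g) * formBlk H a := by
  classical
  have hs : Comm d (adj θ H g) := comm_adj hJ hHu hg
  have hHs : H * adj θ H g = dag θ g * H := by
    rw [adj, Matrix.mul_assoc, Matrix.mul_nonsing_inv_cancel_left _ _ hHu]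
  have key : formBlk H a * blk d hd a (adj θ H g) = dag θ (blk d hd a g) * formBlk H a := by
    ext k l
    have hk1 : d k.1 - 1 < d k.1 := by have := hd k.1; omega
    have e := congrFun (congrFun hHs ⟨k.1, ⟨d k.1 - 1, hk1⟩⟩) ⟨l.1, ⟨0, hd l.1⟩⟩
    have hl : (H * adj θ H g) ⟨k.1, ⟨d k.1 - 1, hk1⟩⟩ ⟨l.1, ⟨0, hd l.1⟩⟩ =
        ∑ m, formTop H k.1 m * top hd (adj θ H g) m l.1 := by
      rw [Matrix.mul_apply, Fintype.sum_sigma]
      refine Finset.sum_congr rfl fun m _ => ?_
      rw [Finset.sum_eq_single (⟨0, hd m⟩ : Fin (d m))]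
      · rw [← hz_of_lt H k.1 m ⟨d k.1 - 1, hk1⟩ ⟨0, hd m⟩]; rfl
      · intro s _ hs'
        have : 0 < (s : ℕ) := Nat.pos_of_ne_zero fun h => hs' (Fin.ext h)
        rw [← hz_of_lt H k.1 m ⟨d k.1 - 1, hk1⟩ s, hz_eq_zero' hH hJ (by show d k.1 ≤ d k.1 - 1 + (s : ℕ); omega),
          zero_mul]
      · simp
    have hr : (dag θ g * H) ⟨k.1, ⟨d k.1 - 1, hk1⟩⟩ ⟨l.1, ⟨0, hd l.1⟩⟩ =
        ∑ m, if d m = a then θ (top hd g m k.1) * formTop H m l.1 else 0 := by
      rw [Matrix.mul_apply, Fintype.sum_sigma]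
      refine Finset.sum_congr rfl fun m _ => ?_
      rcases lt_trichotomy (d m) (d k.1) with hlt | he | hgt
      · rw [if_neg (fun e : d m = a => by have := k.2; omega)]
        refine Finset.sum_eq_zero fun s _ => ?_
        have := s.2
        show θ (g ⟨m, s⟩ ⟨k.1, ⟨d k.1 - 1, hk1⟩⟩) * _ = 0
        rw [rel_of_commute hg m k.1 s ⟨d k.1 - 1, hk1⟩ (hd k.1), if_neg (by show ¬ d k.1 - 1 ≤ (s : ℕ); omega),
          map_zero, zero_mul]
      · have hk2 : d k.1 - 1 < d m := by omega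
        rw [Finset.sum_eq_single (⟨d k.1 - 1, hk2⟩ : Fin (d m))]
        · show θ (g ⟨m, ⟨d k.1 - 1, hk2⟩⟩ ⟨k.1, ⟨d k.1 - 1, hk1⟩⟩) * _ = _
          rw [rel_of_commute hg m k.1 ⟨d k.1 - 1, hk2⟩ ⟨d k.1 - 1, hk1⟩ (hd k.1), if_pos le_rfl,
            if_pos (he.trans k.2), ← hz_of_lt H m l.1 ⟨d k.1 - 1, hk2⟩ ⟨0, hd l.1⟩]
          show _ = _ * hz H m l.1 (d m - 1) 0
          rw [show d m - 1 = d k.1 - 1 by omega]
          simp [top]
        · intro s _ hs'
          have := s.2
          have hne : (s : ℕ) ≠ d k.1 - 1 := fun h => hs' (Fin.ext h)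
          show θ (g ⟨m, s⟩ ⟨k.1, ⟨d k.1 - 1, hk1⟩⟩) * _ = 0
          rw [rel_of_commute hg m k.1 s ⟨d k.1 - 1, hk1⟩ (hd k.1), if_neg (by show ¬ d k.1 - 1 ≤ (s : ℕ); omega),
            map_zero, zero_mul]
        · simp
      · rw [if_neg (fun e : d m = a => by have := k.2; omega)]
        refine Finset.sum_eq_zero fun s _ => ?_
        have hsz : H ⟨m, s⟩ ⟨l.1, ⟨0, hd l.1⟩⟩ = 0 ∨ (s : ℕ) < d l.1 := by
          by_cases h : (s : ℕ) < d l.1
          · exact Or.inr h
          · left; rw [← hz_of_lt H m l.1 s ⟨0, hd l.1⟩, hz_eq_zero hH hJ (by show d l.1 ≤ (s : ℕ) + 0; omega)]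
        rcases hsz with h | h
        · rw [h, mul_zero]
        · show θ (g ⟨m, s⟩ ⟨k.1, ⟨d k.1 - 1, hk1⟩⟩) * _ = 0
          rw [rel_of_commute hg m k.1 s ⟨d k.1 - 1, hk1⟩ (hd k.1)]
          have := k.2.trans l.2.symm
          split_ifs with h'
          · have h'' : d k.1 - 1 ≤ (s : ℕ) := h'
            rw [zero_of_commute hg _ (hd k.1) (by show (s : ℕ) - (d k.1 - 1) + d k.1 < d m; omega), map_zero,
              zero_mul]
          · rw [map_zero, zero_mul]
    rw [hl, hr] at e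
    show ∑ m : {m : Fin t // d m = a}, formTop H k.1 m.1 * top hd (adj θ H g) m.1 l.1 =
      ∑ m : {m : Fin t // d m = a}, θ (top hd g m.1 k.1) * formTop H m.1 l.1
    rw [← Finset.sum_subtype (Finset.univ.filter fun j => d j = a) (by simp)
        (fun j => formTop H k.1 j * top hd (adj θ H g) j l.1),
      ← Finset.sum_subtype (Finset.univ.filter fun j => d j = a) (by simp)
        (fun j => θ (top hd g j k.1) * formTop H j l.1),
      Finset.sum_filter_of_ne, Finset.sum_filter]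
    · exact e
    · intro m _ hne
      rcases lt_trichotomy (d m) a with hlt | he | hgt
      · exact absurd (by rw [formTop_triangular hH hJ (show d m < d k.1 by rw [k.2]; exact hlt), zero_mul]) hne
      · exact he
      · exact absurd (by
          rw [show top hd (adj θ H g) m l.1 = 0 from top_triangular hd hs (show d l.1 < d m by rw [l.2]; exact hgt),
            mul_zero]) hne
  rw [Matrix.mul_assoc, ← key, Matrix.nonsing_inv_mul_cancel_left _ _ (isUnit_formBlk hH hJ hd hHu a)]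

end CfsgLib.JordanCentralizer
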